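import Cfsg.Agent.Chev.Torus
import Cfsg.Agent.Chev.Chk.B2Fin

/-! The Smith normal form of the Cartan matrix of type B2 (generated by tools/gen_tor.py). -/

set_option autoImplicit false
set_option maxRecDepth 1000000

namespace Cfsg.Agent.Chev
open Cfsg.Lie

def smUB2 : Matrix (Fin 2) (Fin 2) ℤ := !![0, -1; 1, 2]
def smUiB2 : Matrix (Fin 2) (Fin 2) ℤ := !![2, 1; -1, 0]
def smVB2 : Matrix (Fin 2) (Fin 2) ℤ := !![1, 2; 0, 1]
def smViB2 : Matrix (Fin 2) (Fin 2) ℤ := !![1, -2; 0, 1]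
def smDB2 : Fin 2 → ℕ := ![1, 2]

def smAB2 : Matrix (Fin 2) (Fin 2) ℤ := cartanM chevB2

theorem smB2_1 : smUiB2 * smUB2 = 1 := by decide +kernel
theorem smB2_2 : smVB2 * smViB2 = 1 := by decide +kernel
theorem smB2_3 : smUB2 * smAB2 * smVB2 =
    Matrix.diagonal fun j => (smDB2 j : ℤ) := by decide +kernel

theorem cardHB2 (F : Type*) [Field F] [Fintype F] : Nat.card (chevB2.diagonalSubgroup F) =
    ∏ j : Fin 2, (Nat.card Fˣ / (Nat.card Fˣ).gcd (smDB2 j)) :=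
  ((relsB2 F).card_H.trans (card_range_zphi (l := 2) smB2_1 smB2_2 smB2_3)).trans (card_range_diag smDB2)

end Cfsg.Agent.Chev
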