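import Cfsg.Agent.Chev.CoxChk
import Cfsg.Agent.Chev.Tab.G2Root
import Cfsg.Agent.Chev.Tab.B2Root
import Cfsg.Agent.Chev.Tab.D4Root
import Cfsg.Agent.Chev.Tab.F4Root
import Cfsg.Agent.Chev.Tab.E6Root
import Cfsg.Agent.Chev.Tab.E7Root
import Cfsg.Agent.Chev.Tab.E8Root

/-! Orders of the products of two fundamental reflections and of the Coxeter elements. -/

set_option autoImplicit false
set_option maxRecDepth 1000000

namespace Cfsg.Agent.Chev
open Cfsg.Lie

theorem cordG2 : ∀ i j : Fin 2, chkOrd nauxG2.w 12 [i.val, j.val] ((CoxeterMatrix.G₂ : CoxeterMatrix (Fin 2)) i j) = true := by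
  decide +kernel

theorem hordG2 : ∀ i j : Fin chevG2.rank, orderOf (goodG2.wP i i.2 * goodG2.wP j j.2) =
    (CoxeterMatrix.G₂ : CoxeterMatrix (Fin 2)) i j := by
  intro i j
  have := goodG2.orderOf_wordP (w_eq_of_chk fastG2 chkAuxG2) [i, j] _ (cordG2 i j)
  simpa [Good.wdP] using this

theorem ccoxG2 : chkOrd nauxG2.w 12 ((List.finRange 2).map Fin.val) 6 = true := by
  decide +kernel

theorem hcoxG2 : orderOf (goodG2.wdP (List.finRange chevG2.rank)) = 6 :=
  goodG2.orderOf_wordP (w_eq_of_chk fastG2 chkAuxG2) _ _ ccoxG2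

theorem cordB2 : ∀ i j : Fin 2, chkOrd nauxB2.w 8 [i.val, j.val] ((CoxeterMatrix.B 2 : CoxeterMatrix (Fin 2)) i j) = true := by
  decide +kernel

theorem hordB2 : ∀ i j : Fin chevB2.rank, orderOf (goodB2.wP i i.2 * goodB2.wP j j.2) =
    (CoxeterMatrix.B 2 : CoxeterMatrix (Fin 2)) i j := by
  intro i j
  have := goodB2.orderOf_wordP (w_eq_of_chk fastB2 chkAuxB2) [i, j] _ (cordB2 i j)
  simpa [Good.wdP] using this

theorem ccoxB2 : chkOrd nauxB2.w 8 ((List.finRange 2).map Fin.val) 4 = true := by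
  decide +kernel

theorem hcoxB2 : orderOf (goodB2.wdP (List.finRange chevB2.rank)) = 4 :=
  goodB2.orderOf_wordP (w_eq_of_chk fastB2 chkAuxB2) _ _ ccoxB2

theorem cordD4 : ∀ i j : Fin 4, chkOrd nauxD4.w 24 [i.val, j.val] ((Cfsg.Lie.coxeterD4 : CoxeterMatrix (Fin 4)) i j) = true := by
  decide +kernel

theorem hordD4 : ∀ i j : Fin chevD4.rank, orderOf (goodD4.wP i i.2 * goodD4.wP j j.2) =
    (Cfsg.Lie.coxeterD4 : CoxeterMatrix (Fin 4)) i j := by
  intro i j
  have := goodD4.orderOf_wordP (w_eq_of_chk fastD4 chkAuxD4) [i, j] _ (cordD4 i j)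
  simpa [Good.wdP] using this

theorem ccoxD4 : chkOrd nauxD4.w 24 ((List.finRange 4).map Fin.val) 6 = true := by
  decide +kernel

theorem hcoxD4 : orderOf (goodD4.wdP (List.finRange chevD4.rank)) = 6 :=
  goodD4.orderOf_wordP (w_eq_of_chk fastD4 chkAuxD4) _ _ ccoxD4

theorem cordF4 : ∀ i j : Fin 4, chkOrd nauxF4.w 48 [i.val, j.val] ((CoxeterMatrix.F₄ : CoxeterMatrix (Fin 4)) i j) = true := by
  decide +kernel

theorem hordF4 : ∀ i j : Fin chevF4.rank, orderOf (goodF4.wP i i.2 * goodF4.wP j j.2) =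
    (CoxeterMatrix.F₄ : CoxeterMatrix (Fin 4)) i j := by
  intro i j
  have := goodF4.orderOf_wordP (w_eq_of_chk fastF4 chkAuxF4) [i, j] _ (cordF4 i j)
  simpa [Good.wdP] using this

theorem ccoxF4 : chkOrd nauxF4.w 48 ((List.finRange 4).map Fin.val) 12 = true := by
  decide +kernel

theorem hcoxF4 : orderOf (goodF4.wdP (List.finRange chevF4.rank)) = 12 :=
  goodF4.orderOf_wordP (w_eq_of_chk fastF4 chkAuxF4) _ _ ccoxF4

theorem cordE6 : ∀ i j : Fin 6, chkOrd nauxE6.w 72 [i.val, j.val] ((CoxeterMatrix.E₆ : CoxeterMatrix (Fin 6)) i j) = true := by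
  decide +kernel

theorem hordE6 : ∀ i j : Fin chevE6.rank, orderOf (goodE6.wP i i.2 * goodE6.wP j j.2) =
    (CoxeterMatrix.E₆ : CoxeterMatrix (Fin 6)) i j := by
  intro i j
  have := goodE6.orderOf_wordP (w_eq_of_chk fastE6 chkAuxE6) [i, j] _ (cordE6 i j)
  simpa [Good.wdP] using this

theorem ccoxE6 : chkOrd nauxE6.w 72 ((List.finRange 6).map Fin.val) 12 = true := by
  decide +kernel

theorem hcoxE6 : orderOf (goodE6.wdP (List.finRange chevE6.rank)) = 12 :=
  goodE6.orderOf_wordP (w_eq_of_chk fastE6 chkAuxE6) _ _ ccoxE6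

theorem cordE7 : ∀ i j : Fin 7, chkOrd nauxE7.w 126 [i.val, j.val] ((CoxeterMatrix.E₇ : CoxeterMatrix (Fin 7)) i j) = true := by
  decide +kernel

theorem hordE7 : ∀ i j : Fin chevE7.rank, orderOf (goodE7.wP i i.2 * goodE7.wP j j.2) =
    (CoxeterMatrix.E₇ : CoxeterMatrix (Fin 7)) i j := by
  intro i j
  have := goodE7.orderOf_wordP (w_eq_of_chk fastE7 chkAuxE7) [i, j] _ (cordE7 i j)
  simpa [Good.wdP] using this

theorem ccoxE7 : chkOrd nauxE7.w 126 ((List.finRange 7).map Fin.val) 18 = true := by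
  decide +kernel

theorem hcoxE7 : orderOf (goodE7.wdP (List.finRange chevE7.rank)) = 18 :=
  goodE7.orderOf_wordP (w_eq_of_chk fastE7 chkAuxE7) _ _ ccoxE7

theorem cordE8 : ∀ i j : Fin 8, chkOrd nauxE8.w 240 [i.val, j.val] ((CoxeterMatrix.E₈ : CoxeterMatrix (Fin 8)) i j) = true := by
  decide +kernel

theorem hordE8 : ∀ i j : Fin chevE8.rank, orderOf (goodE8.wP i i.2 * goodE8.wP j j.2) =
    (CoxeterMatrix.E₈ : CoxeterMatrix (Fin 8)) i j := by
  intro i j
  have := goodE8.orderOf_wordP (w_eq_of_chk fastE8 chkAuxE8) [i, j] _ (cordE8 i j)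
  simpa [Good.wdP] using this

theorem ccoxE8 : chkOrd nauxE8.w 240 ((List.finRange 8).map Fin.val) 30 = true := by
  decide +kernel

theorem hcoxE8 : orderOf (goodE8.wdP (List.finRange chevE8.rank)) = 30 :=
  goodE8.orderOf_wordP (w_eq_of_chk fastE8 chkAuxE8) _ _ ccoxE8

end Cfsg.Agent.Chev
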