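import Cfsg.Agent.Chev.Torus
import Cfsg.Agent.Chev.Chk.D4Fin

/-! The Smith normal form of the Cartan matrix of type D4 (generated by tools/gen_tor.py). -/

set_option autoImplicit false
set_option maxRecDepth 1000000

namespace Cfsg.Agent.Chev
open Cfsg.Lie

def smUD4 : Matrix (Fin 4) (Fin 4) ℤ := !![-1, 0, 0, 0; -2, -1, 0, 0; -3, -2, -1, 0; 2, 2, 1, 1]
def smUiD4 : Matrix (Fin 4) (Fin 4) ℤ := !![-1, 0, 0, 0; 2, -1, 0, 0; -1, 2, -1, 0; -1, 0, 1, 1]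
def smVD4 : Matrix (Fin 4) (Fin 4) ℤ := !![0, 0, 0, 1; 1, 0, 0, 2; 0, 1, -1, 1; 0, 0, 1, 2]
def smViD4 : Matrix (Fin 4) (Fin 4) ℤ := !![-2, 1, 0, 0; -3, 0, 1, 1; -2, 0, 0, 1; 1, 0, 0, 0]
def smDD4 : Fin 4 → ℕ := ![1, 1, 2, 2]

def smAD4 : Matrix (Fin 4) (Fin 4) ℤ := cartanM chevD4

theorem smD4_1 : smUiD4 * smUD4 = 1 := by decide +kernel
theorem smD4_2 : smVD4 * smViD4 = 1 := by decide +kernel
theorem smD4_3 : smUD4 * smAD4 * smVD4 =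
    Matrix.diagonal fun j => (smDD4 j : ℤ) := by decide +kernel

theorem cardHD4 (F : Type*) [Field F] [Fintype F] : Nat.card (chevD4.diagonalSubgroup F) =
    ∏ j : Fin 4, (Nat.card Fˣ / (Nat.card Fˣ).gcd (smDD4 j)) :=
  ((relsD4 F).card_H.trans (card_range_zphi (l := 4) smD4_1 smD4_2 smD4_3)).trans (card_range_diag smDD4)

end Cfsg.Agent.Chev
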