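import Cfsg.Agent.Chev.Tw1
import Cfsg.Agent.Chev.Tab.D4Graph

/-! Tables of the twisting of type D4 (generated by tools/gen_tw.py). -/

set_option autoImplicit false
set_option maxRecDepth 1000000

namespace Cfsg.Agent.Chev
open Cfsg.Lie

def twcD4 : TwC where
  π := gauxD4a.π
  ρ := gauxD4a.ρ
  ε := gauxD4a.ε
  d := 3
  heads := [18, 14, 15, 17, 22, 23]
  rep := fun s => ([0, 0, 0, 0, 0, 0, 0, 0, 0, 0, 0, 0, 18, 18, 14, 15, 15, 17, 18, 15, 17, 17, 22, 23] : List ℕ).getD s 0
  kk := fun s => ([0, 0, 0, 0, 0, 0, 0, 0, 0, 0, 0, 0, 2, 1, 0, 0, 2, 0, 0, 1, 1, 2, 0, 0] : List ℕ).getD s 0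
  par := fun s => ([(1, 1), (0, 9), (0, 8), (0, 7), (1, 5), (0, 18), (0, 4), (1, 10), (1, 11), (1, 14), (0, 18), (0, 18), (0, 11), (0, 10), (0, 0), (1, 18), (1, 18), (0, 19), (0, 0), (1, 18), (0, 16), (0, 15), (0, 14), (1, 22)] : List (ℕ × ℕ)).getD s (0, 0)
  dep := fun s => ([3, 2, 3, 3, 2, 1, 3, 2, 2, 1, 1, 1, 2, 2, 0, 1, 1, 2, 0, 1, 2, 2, 1, 2] : List ℕ).getD s 0

theorem twokD4 : TwOK chevD4 twcD4 where
  d_pos := by decide +kernel
  rho_lt := by decide +kernel
  rho_pow := by decide +kernel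
  rho_neg := by decide +kernel
  rho_pos := by decide +kernel
  simple := by decide +kernel
  eps := by decide +kernel
  perm := by decide +kernel
  sc := by decide +kernel
  comm := by decide +kernel
  sg_e := by decide +kernel
  rep_kk := by decide +kernel
  heads_nodup := by decide +kernel
  eps_neg := by decide +kernel
  comm2 := by decide +kernel
  blk_nodup := by decide +kernel
  orth := by decide +kernel
  trans := by decide +kernel
  reach := by decide +kernel
  hinj := by decide +kernel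
  cover := by decide +kernel
  wJ_sq := by decide +kernel

end Cfsg.Agent.Chev
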