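import Cfsg.Agent.Chev.TwO2
import Cfsg.Agent.Chev.Tab.D4Orb
import Cfsg.Agent.Chev.Tw7

/-! The regular orbit of the twisted Weyl group of type D4 (generated by tools/gen_two.py). -/

set_option autoImplicit false
set_option maxRecDepth 1000000

namespace Cfsg.Agent.Chev
open Cfsg.Lie

def twJJD4 : List (List ℕ) := [[0, 2, 3], [1]]

def twOrbD4 : List OEnt := [
  ⟨[-1057, 33825, -33793, -33824], 8, 0, [10, 4]⟩,
  ⟨[-1057, 34849, -33793, -33824], 7, 0, [11, 5]⟩,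
  ⟨[-33792, 1024, -1056, -1025], 11, 0, [5, 3]⟩,
  ⟨[-32768, -1024, -32, -1], 12, 1, [4, 2]⟩,
  ⟨[32768, -33825, 32, 1], 9, 1, [3, 0]⟩,
  ⟨[33792, -34849, 1056, 1025], 8, 1, [2, 1]⟩,
  ⟨[-33792, 34849, -1056, -1025], 4, 0, [9, 10]⟩,
  ⟨[-32768, 33825, -32, -1], 3, 0, [8, 11]⟩,
  ⟨[32768, 1024, 32, 1], 0, 0, [7, 9]⟩,
  ⟨[33792, -1024, 1056, 1025], 1, 1, [6, 8]⟩,
  ⟨[1057, -34849, 33793, 33824], 5, 1, [0, 6]⟩,
  ⟨[1057, -33825, 33793, 33824], 4, 1, [1, 7]⟩]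

theorem twOrbD4_ok : chkT 4 cmD4 twJJD4 2 8 twOrbD4 = true := by decide +kernel

theorem twJJD4_1 : ∀ J ∈ twJJD4, ∃ i < chevD4.rank, chevD4.simple i ∈ twcD4.heads ∧ J = twcD4.Js chevD4 i := by
  decide +kernel

theorem twJJD4_2 : ∀ i < chevD4.rank, chevD4.simple i ∈ twcD4.heads → twcD4.Js chevD4 i ∈ twJJD4 := by
  decide +kernel

end Cfsg.Agent.Chev
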