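import Cfsg.Agent.Chev.Para
import Cfsg.Prelude.Def_ChevG2
import Cfsg.Prelude.Def_ChevB2
import Cfsg.Prelude.Def_ChevD4
import Cfsg.Prelude.Def_ChevF4
import Cfsg.Prelude.Def_ChevE6
import Cfsg.Prelude.Def_ChevE7
import Cfsg.Prelude.Def_ChevE8

/-! The descent fact for the seven types. -/

set_option autoImplicit false
set_option maxRecDepth 1000000

namespace Cfsg.Agent.Chev
open Cfsg.Lie

theorem descentG2 : Descent chevG2 := by decide +kernel

theorem descentB2 : Descent chevB2 := by decide +kernel

theorem descentD4 : Descent chevD4 := by decide +kernel

theorem descentF4 : Descent chevF4 := by decide +kernel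

theorem descentE6 : Descent chevE6 := by decide +kernel

theorem descentE7 : Descent chevE7 := by decide +kernel

theorem descentE8 : Descent chevE8 := by decide +kernel

theorem exists_descent {D : ChevalleyDatum}
    (hD : D ∈ [chevG2, chevB2, chevD4, chevF4, chevE6, chevE7, chevE8]) : Descent D := by
  simp only [List.mem_cons, List.not_mem_nil, or_false] at hD
  rcases hD with rfl | rfl | rfl | rfl | rfl | rfl | rfl
  · exact descentG2
  · exact descentB2
  · exact descentD4
  · exact descentF4
  · exact descentE6
  · exact descentE7
  · exact descentE8

end Cfsg.Agent.Chev
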