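import Cfsg.Agent.Chev.Torus
import Cfsg.Agent.Chev.Chk.E6Fin

/-! The Smith normal form of the Cartan matrix of type E6 (generated by tools/gen_tor.py). -/

set_option autoImplicit false
set_option maxRecDepth 1000000

namespace Cfsg.Agent.Chev
open Cfsg.Lie

def smUE6 : Matrix (Fin 6) (Fin 6) ℤ := !![-1, 0, 0, 0, 0, 0; 0, -1, 0, 0, 0, 0; 1, -2, 0, -1, 0, 0; 2, -3, 0, -2, -1, 0; -2, 1, -1, 0, 0, 0; -5, 0, -4, -3, -2, -1]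
def smUiE6 : Matrix (Fin 6) (Fin 6) ℤ := !![-1, 0, 0, 0, 0, 0; 0, -1, 0, 0, 0, 0; 2, -1, 0, 0, -1, 0; -1, 2, -1, 0, 0, 0; 0, -1, 2, -1, 0, 0; 0, 0, -1, 2, 4, -1]
def smVE6 : Matrix (Fin 6) (Fin 6) ℤ := !![0, 0, 0, 0, 1, -2; 0, 0, 0, 0, 2, -3; 1, 0, 0, 0, 2, -4; 0, 1, 0, 0, 4, -6; 0, 0, 1, 0, 4, -5; 0, 0, 0, 1, 4, -4]
def smViE6 : Matrix (Fin 6) (Fin 6) ℤ := !![-2, 0, 1, 0, 0, 0; 0, -2, 0, 1, 0, 0; 2, -3, 0, 0, 1, 0; 4, -4, 0, 0, 0, 1; -3, 2, 0, 0, 0, 0; -2, 1, 0, 0, 0, 0]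
def smDE6 : Fin 6 → ℕ := ![1, 1, 1, 1, 1, 3]

def smAE6 : Matrix (Fin 6) (Fin 6) ℤ := cartanM chevE6

theorem smE6_1 : smUiE6 * smUE6 = 1 := by decide +kernel
theorem smE6_2 : smVE6 * smViE6 = 1 := by decide +kernel
theorem smE6_3 : smUE6 * smAE6 * smVE6 =
    Matrix.diagonal fun j => (smDE6 j : ℤ) := by decide +kernel

theorem cardHE6 (F : Type*) [Field F] [Fintype F] : Nat.card (chevE6.diagonalSubgroup F) =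
    ∏ j : Fin 6, (Nat.card Fˣ / (Nat.card Fˣ).gcd (smDE6 j)) :=
  ((relsE6 F).card_H.trans (card_range_zphi (l := 6) smE6_1 smE6_2 smE6_3)).trans (card_range_diag smDE6)

end Cfsg.Agent.Chev
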