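import Cfsg.Agent.Chev.Torus
import Cfsg.Agent.Chev.Chk.E7Fin

/-! The Smith normal form of the Cartan matrix of type E7 (generated by tools/gen_tor.py). -/

set_option autoImplicit false
set_option maxRecDepth 1000000

namespace Cfsg.Agent.Chev
open Cfsg.Lie

def smUE7 : Matrix (Fin 7) (Fin 7) ℤ := !![-1, 0, 0, 0, 0, 0, 0; 0, -1, 0, 0, 0, 0, 0; 1, -2, 0, -1, 0, 0, 0; 2, -3, 0, -2, -1, 0, 0; 3, -4, 0, -3, -2, -1, 0; -2, 1, -1, 0, 0, 0, 0; -4, -1, -4, -4, -3, -2, -1]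
def smUiE7 : Matrix (Fin 7) (Fin 7) ℤ := !![-1, 0, 0, 0, 0, 0, 0; 0, -1, 0, 0, 0, 0, 0; 2, -1, 0, 0, 0, -1, 0; -1, 2, -1, 0, 0, 0, 0; 0, -1, 2, -1, 0, 0, 0; 0, 0, -1, 2, -1, 0, 0; 0, 0, 0, -1, 2, 4, -1]
def smVE7 : Matrix (Fin 7) (Fin 7) ℤ := !![0, 0, 0, 0, 0, 1, -2; 0, 0, 0, 0, 0, 2, -3; 1, 0, 0, 0, 0, 2, -4; 0, 1, 0, 0, 0, 4, -6; 0, 0, 1, 0, 0, 4, -5; 0, 0, 0, 1, 0, 4, -4; 0, 0, 0, 0, 1, 4, -3]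
def smViE7 : Matrix (Fin 7) (Fin 7) ℤ := !![-2, 0, 1, 0, 0, 0, 0; 0, -2, 0, 1, 0, 0, 0; 2, -3, 0, 0, 1, 0, 0; 4, -4, 0, 0, 0, 1, 0; 6, -5, 0, 0, 0, 0, 1; -3, 2, 0, 0, 0, 0, 0; -2, 1, 0, 0, 0, 0, 0]
def smDE7 : Fin 7 → ℕ := ![1, 1, 1, 1, 1, 1, 2]

def smAE7 : Matrix (Fin 7) (Fin 7) ℤ := cartanM chevE7

theorem smE7_1 : smUiE7 * smUE7 = 1 := by decide +kernel
theorem smE7_2 : smVE7 * smViE7 = 1 := by decide +kernel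
theorem smE7_3 : smUE7 * smAE7 * smVE7 =
    Matrix.diagonal fun j => (smDE7 j : ℤ) := by decide +kernel

theorem cardHE7 (F : Type*) [Field F] [Fintype F] : Nat.card (chevE7.diagonalSubgroup F) =
    ∏ j : Fin 7, (Nat.card Fˣ / (Nat.card Fˣ).gcd (smDE7 j)) :=
  ((relsE7 F).card_H.trans (card_range_zphi (l := 7) smE7_1 smE7_2 smE7_3)).trans (card_range_diag smDE7)

end Cfsg.Agent.Chev
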