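import Cfsg.Agent.Chev.Tab.G2Root
import Cfsg.Agent.Chev.Tab.B2Root
import Cfsg.Agent.Chev.Tab.D4Root
import Cfsg.Agent.Chev.Tab.F4Root
import Cfsg.Agent.Chev.Tab.E6Root
import Cfsg.Agent.Chev.Tab.E7Root
import Cfsg.Agent.Chev.Tab.E8Root

/-! More facts on the signs of the fundamental monomial elements. -/

set_option autoImplicit false
set_option maxRecDepth 1000000

namespace Cfsg.Agent.Chev
open Cfsg.Lie

/-- sign facts -/
def EtaFacts (D : ChevalleyDatum) (G : Good D) : Prop :=
  ∀ i < D.rank, G.eta i (D.simple i) = -1 ∧ G.eta i (D.neg (D.simple i)) = -1 ∧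
    ∀ s < D.nroots, G.eta i s * G.eta i (D.reflectRoot i s) = (-1) ^ (D.cartan i s).natAbs

instance (D : ChevalleyDatum) (G : Good D) : Decidable (EtaFacts D G) := by
  unfold EtaFacts; infer_instance

theorem etaFactsG2 : EtaFacts chevG2 goodG2 := by decide +kernel

theorem etaFactsB2 : EtaFacts chevB2 goodB2 := by decide +kernel

theorem etaFactsD4 : EtaFacts chevD4 goodD4 := by decide +kernel

theorem etaFactsF4 : EtaFacts chevF4 goodF4 := by decide +kernel

theorem etaFactsE6 : EtaFacts chevE6 goodE6 := by decide +kernel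

theorem etaFactsE7 : EtaFacts chevE7 goodE7 := by decide +kernel

theorem etaFactsE8 : EtaFacts chevE8 goodE8 := by decide +kernel

end Cfsg.Agent.Chev
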