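import Cfsg.Agent.Chev.Torus
import Cfsg.Agent.Chev.Chk.F4Fin

/-! The Smith normal form of the Cartan matrix of type F4 (generated by tools/gen_tor.py). -/

set_option autoImplicit false
set_option maxRecDepth 1000000

namespace Cfsg.Agent.Chev
open Cfsg.Lie

def smUF4 : Matrix (Fin 4) (Fin 4) ℤ := !![-1, 0, 0, 0; 1, 0, -1, 0; -2, -1, 0, 0; -2, -2, -2, -1]
def smUiF4 : Matrix (Fin 4) (Fin 4) ℤ := !![-1, 0, 0, 0; 2, 0, -1, 0; -1, -1, 0, 0; 0, 2, 2, -1]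
def smVF4 : Matrix (Fin 4) (Fin 4) ℤ := !![0, 0, 1, -2; 1, 0, 2, -4; 0, 0, 2, -3; 0, 1, 2, -2]
def smViF4 : Matrix (Fin 4) (Fin 4) ℤ := !![-2, 1, 0, 0; 2, 0, -2, 1; -3, 0, 2, 0; -2, 0, 1, 0]
def smDF4 : Fin 4 → ℕ := ![1, 1, 1, 1]

def smAF4 : Matrix (Fin 4) (Fin 4) ℤ := cartanM chevF4

theorem smF4_1 : smUiF4 * smUF4 = 1 := by decide +kernel
theorem smF4_2 : smVF4 * smViF4 = 1 := by decide +kernel
theorem smF4_3 : smUF4 * smAF4 * smVF4 =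
    Matrix.diagonal fun j => (smDF4 j : ℤ) := by decide +kernel

theorem cardHF4 (F : Type*) [Field F] [Fintype F] : Nat.card (chevF4.diagonalSubgroup F) =
    ∏ j : Fin 4, (Nat.card Fˣ / (Nat.card Fˣ).gcd (smDF4 j)) :=
  ((relsF4 F).card_H.trans (card_range_zphi (l := 4) smF4_1 smF4_2 smF4_3)).trans (card_range_diag smDF4)

end Cfsg.Agent.Chev
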