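import Cfsg.Agent.Chev.Poin3
import Cfsg.Agent.Chev.Tab.G2Root2
import Cfsg.Agent.Chev.Chk.G2Fin

/-! Orbit tables for the Weyl group of type G2 (generated by tools/gen_orb.py). -/

set_option autoImplicit false
set_option maxRecDepth 1000000

namespace Cfsg.Agent.Chev
open Cfsg.Lie

def cmG2 : ℕ → ℕ → ℤ := fun j k => (([[2, -3], [-1, 2]] : List (List ℤ)).getD j []).getD k 0

theorem cmG2_eq : ∀ j < chevG2.rank, ∀ k < chevG2.rank, chevG2.cartan j (chevG2.simple k) = cmG2 j k := by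
  decide +kernel

def orbG2_0 : List OEnt := [
  ⟨[1, 0], 0, 0, [1, 0]⟩,
  ⟨[-1, 3], 1, 0, [0, 2]⟩,
  ⟨[2, -3], 2, 1, [3, 1]⟩,
  ⟨[-2, 3], 3, 0, [2, 4]⟩,
  ⟨[1, -3], 4, 1, [5, 3]⟩,
  ⟨[-1, 0], 5, 0, [4, 5]⟩]

theorem orbG2_0_ok : chkOrb 2 cmG2 [] 0 orbG2_0 = true := by decide +kernel

def orbG2_1 : List OEnt := [
  ⟨[0, 1], 0, 0, [0, 1]⟩,
  ⟨[1, -1], 1, 1, [0, 0]⟩]

theorem orbG2_1_ok : chkOrb 2 cmG2 [0] 1 orbG2_1 = true := by decide +kernel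

theorem psumG2 (q : ℕ) : goodG2.psum goodG2.W q = (orbG2_0.map fun e => q ^ e.d).sum * ((orbG2_1.map fun e => q ^ e.d).sum) := by
  have hZ : ∀ σ ∈ goodG2.W, goodG2.nn σ = 0 → σ = 1 := fun σ hσ h => (relsG2 ℚ).W_eq_one good2G2 hσ h
  rw [← goodG2.WL_nil,
    goodG2.orb_step hZ cmG2 cmG2_eq [] 0 orbG2_0 (by decide) (OrbOK.of_chk orbG2_0_ok) q,
    goodG2.orb_step hZ cmG2 cmG2_eq [0] 1 orbG2_1 (by decide) (OrbOK.of_chk orbG2_1_ok) q,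
    goodG2.WL_full [1, 0] (by decide), goodG2.psum_bot, mul_one]

theorem polyEqG2 : lpmul (polyO orbG2_0) (lpmul (polyO orbG2_1) (lpmul (pxd 1) (pxd 1))) = lpmul (pxd 2) (pxd 6) := by decide +kernel

theorem poinG2 (q : ℕ) : ((goodG2.psum goodG2.W q : ℕ) : ℤ) * ((q : ℤ) - 1) ^ 2 = ((q : ℤ) ^ 2 - 1) * (((q : ℤ) ^ 6 - 1)) := by
  have h := congrArg (fun p => pev p (q : ℤ)) polyEqG2
  simp only [pev_lpmul, pev_polyO, pev_pxd] at h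
  rw [← h, psumG2]
  push_cast
  ring

end Cfsg.Agent.Chev
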