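import Cfsg.Agent.Chev.MulFn
import Cfsg.Agent.Chev.Tab.G2
import Cfsg.Agent.Chev.Tab.B2
import Cfsg.Agent.Chev.Tab.D4
import Cfsg.Agent.Chev.Tab.F4
import Cfsg.Agent.Chev.Tab.E6
import Cfsg.Agent.Chev.Tab.E7
import Cfsg.Agent.Chev.Tab.E8

/-! The chains of the seven types are made of single steps. -/

set_option autoImplicit false
set_option maxRecDepth 1000000

namespace Cfsg.Agent.Chev
open Cfsg.Lie

theorem cStepG2 : allRange (chkStep pkG2) 0 12 = true := by decide +kernel

theorem stepG2 : Step chevG2 := Step.ofChk fastG2 (fun r hr => allRange_spec cStepG2 r (Nat.zero_le r) (by have : r < 12 := hr; omega))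

theorem cStepB2 : allRange (chkStep pkB2) 0 8 = true := by decide +kernel

theorem stepB2 : Step chevB2 := Step.ofChk fastB2 (fun r hr => allRange_spec cStepB2 r (Nat.zero_le r) (by have : r < 8 := hr; omega))

theorem cStepD4 : allRange (chkStep pkD4) 0 24 = true := by decide +kernel

theorem stepD4 : Step chevD4 := Step.ofChk fastD4 (fun r hr => allRange_spec cStepD4 r (Nat.zero_le r) (by have : r < 24 := hr; omega))

theorem cStepF4 : allRange (chkStep pkF4) 0 48 = true := by decide +kernel

theorem stepF4 : Step chevF4 := Step.ofChk fastF4 (fun r hr => allRange_spec cStepF4 r (Nat.zero_le r) (by have : r < 48 := hr; omega))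

theorem cStepE6 : allRange (chkStep pkE6) 0 72 = true := by decide +kernel

theorem stepE6 : Step chevE6 := Step.ofChk fastE6 (fun r hr => allRange_spec cStepE6 r (Nat.zero_le r) (by have : r < 72 := hr; omega))

theorem cStepE7 : allRange (chkStep pkE7) 0 126 = true := by decide +kernel

theorem stepE7 : Step chevE7 := Step.ofChk fastE7 (fun r hr => allRange_spec cStepE7 r (Nat.zero_le r) (by have : r < 126 := hr; omega))

theorem cStepE8 : allRange (chkStep pkE8) 0 240 = true := by decide +kernel

theorem stepE8 : Step chevE8 := Step.ofChk fastE8 (fun r hr => allRange_spec cStepE8 r (Nat.zero_le r) (by have : r < 240 := hr; omega))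

end Cfsg.Agent.Chev
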