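import Cfsg.Agent.Chev.Tw11
import Cfsg.Agent.Chev.Tab.E6Tw
import Cfsg.Agent.Chev.Tab.D4Tw

/-! More tables for the twisted groups (generated by tools/gen_twx.py). -/

set_option autoImplicit false
set_option maxRecDepth 1000000

namespace Cfsg.Agent.Chev
open Cfsg.Lie

theorem twxE6 : TwX chevE6 twcE6 [3, 2, 1, 3, 0, 2, 1, 3, 0, 2, 1, 3, 0, 2, 1, 3, 0, 2, 1, 3, 0, 2, 1, 0] where
  ok := by decide +kernel
  neg := by decide +kernel

theorem twxD4 : TwX chevD4 twcD4 [1, 0, 1, 0, 1, 0] where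
  ok := by decide +kernel
  neg := by decide +kernel

end Cfsg.Agent.Chev
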